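/-
The Suzuki group preserves the alternating form; the ovoid is a cap.
-/
import Mathlib
import Cfsg.Agent.Lib.Suzuki.Simple

set_option autoImplicit false

namespace Cfsg.Agent.Lib.Suzuki.Form

open Cfsg Cfsg.Agent.Lib.Suzuki.Core Cfsg.Agent.Lib.Suzuki.Elements Cfsg.Agent.Lib.Suzuki.Stab
open Cfsg.Agent.Lib.Suzuki.Group Cfsg.Agent.Lib.Suzuki.Simple
open scoped Pointwise Matrix

variable {F : Type*} [Field F]

/-- preservation of the form -/
def Pres (g : Matrix (Fin 4) (Fin 4) F) : Prop := g.transpose * suzukiForm F * g = suzukiForm F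

lemma Pres.mul {g h : Matrix (Fin 4) (Fin 4) F} (hg : Pres g) (hh' : Pres h) : Pres (g * h) := by
  unfold Pres at *
  rw [Matrix.transpose_mul]
  calc h.transpose * g.transpose * suzukiForm F * (g * h)
      = h.transpose * (g.transpose * suzukiForm F * g) * h := by
        simp only [Matrix.mul_assoc]
    _ = suzukiForm F := by rw [hg, hh']

lemma pres_ww : Pres (wMat F) := by
  unfold Pres
  ext i j
  fin_cases i <;> fin_cases j <;>
    simp [wMat, suzukiForm, Matrix.mul_apply, Fin.sum_univ_four]

lemma pres_hh (m : ℕ) (l : Fˣ) : Pres (hMat m l) := by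
  unfold Pres
  have hl : (l : F) ≠ 0 := l.ne_zero
  have hB : ((l : F) ^ (2 ^ m)) ≠ 0 := pow_ne_zero _ hl
  have hA : ((l : F) ^ (2 ^ m + 1)) ≠ 0 := pow_ne_zero _ hl
  rw [hMat_eq]
  ext i j
  fin_cases i <;> fin_cases j <;>
    simp [suzukiForm, Matrix.mul_apply, Fin.sum_univ_four, hB, hA]

lemma pres_uu [CharP F 2] {m : ℕ} (a b : F) : Pres (uMat m a b) := by
  unfold Pres
  have h2 : (2 : F) = 0 := two_eq_zero'
  have h4 : (4 : F) = 0 := by linear_combination 2 * h2
  ext i j
  fin_cases i <;> fin_cases j <;>
    simp [uMat, suzukiForm, Matrix.mul_apply, Fin.sum_univ_four] <;>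
    ring_nf <;>
    simp [h2, h4]

variable [Fintype F] [CharP F 2] {m : ℕ}

theorem pres_of_mem (hc : Ctx F m) {g : SL4 F} (hg : g ∈ Sz F m) :
    (g : Matrix (Fin 4) (Fin 4) F).transpose * suzukiForm F * (g : Matrix (Fin 4) (Fin 4) F) =
      suzukiForm F := by
  rcases bruhat hc ⟨g, hg⟩ with ⟨a, b, l, h⟩ | ⟨x, y, a, b, l, h⟩
  · have h1 := congrArg (fun t : Sz F m => ((t : SL4 F) : Matrix (Fin 4) (Fin 4) F)) h
    have h2 : (g : Matrix (Fin 4) (Fin 4) F) = uMat m a b * hMat m l := h1
    rw [h2]
    exact (pres_uu a b).mul (pres_hh m l)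
  · have h1 := congrArg (fun t : Sz F m => ((t : SL4 F) : Matrix (Fin 4) (Fin 4) F)) h
    have h2 : (g : Matrix (Fin 4) (Fin 4) F) = (uMat m x y * wMat F) * (uMat m a b * hMat m l) := h1
    rw [h2]
    exact ((pres_uu x y).mul pres_ww).mul ((pres_uu a b).mul (pres_hh m l))

/-- Linear independence of the vectors attached to infinity, zero and a third point. -/
lemma linearIndependent_base {x y : F} (h : ¬ (x = 0 ∧ y = 0)) :
    LinearIndependent F ![(vecInf : Fin 4 → F), vec m (0 : F) 0, vec m x y] := by
  rw [Fintype.linearIndependent_iff]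
  intro c hc' i
  have h0 := congrFun hc' 0
  have h1 := congrFun hc' 1
  have h2 := congrFun hc' 2
  have h3 := congrFun hc' 3
  simp [Fin.sum_univ_three, vecInf, vec, ff_zero_zero] at h0 h1 h2 h3
  have hc2 : c 2 = 0 := by
    by_contra hne
    exact h ⟨(h2.resolve_left hne), (h1.resolve_left hne)⟩
  rw [hc2] at h0 h3
  simp at h0 h3
  fin_cases i
  · exact h0
  · exact h3
  · exact hc2

/-- Any three distinct points of the ovoid are independent. -/
theorem independent (hc : Ctx F m) (p : Fin 3 ↪ suzukiOvoid F m) :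
    Projectivization.Independent (fun i => (p i : Projectivization F (Fin 4 → F))) := by
  have h01 : p 0 ≠ p 1 := fun h => by simpa using p.injective h
  have h02 : p 0 ≠ p 2 := fun h => by simpa using p.injective h
  have h12 : p 1 ≠ p 2 := fun h => by simpa using p.injective h
  obtain ⟨g, hg0, hg1⟩ := exists_smul_inf_zero hc h01
  have hg2a : g • p 2 ≠ infO := by
    intro h
    rw [← hg0] at h
    exact h02 (smul_left_cancel g h).symm
  have hg2b : g • p 2 ≠ ptO 0 0 := by
    intro h
    rw [← hg1] at h
    exact h12 (smul_left_cancel g h).symm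
  rcases OO_cases (g • p 2) with h' | ⟨x, y, h'⟩
  · exact absurd h' hg2a
  · have hxy : ¬ (x = 0 ∧ y = 0) := by
      rintro ⟨rfl, rfl⟩
      exact hg2b h'
    -- the vectors
    let v : Fin 3 → (Fin 4 → F) := ![vecInf, vec m (0 : F) 0, vec m x y]
    let k : SL4 F := ((g⁻¹ : Sz F m) : SL4 F)
    let f : Fin 3 → (Fin 4 → F) := fun i => k • v i
    have hv : ∀ i, v i ≠ 0 := by
      intro i
      fin_cases i
      · exact vecInf_ne_zero
      · exact vec_ne_zero m 0 0
      · exact vec_ne_zero m x y
    have hf : ∀ i, f i ≠ 0 := fun i h => hv i ((smul_eq_zero_iff_eq k).mp h)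
    have hl : LinearIndependent F f := by
      have h0 := linearIndependent_base (m := m) hxy
      exact h0.map' (DistribMulAction.toLinearEquiv F (Fin 4 → F) k).toLinearMap
        (LinearEquiv.ker _)
    have hp : (fun i => (p i : Projectivization F (Fin 4 → F))) =
        fun i => Projectivization.mk F (f i) (hf i) := by
      funext i
      have e0 : ((p 0 : suzukiOvoid F m) : Projectivization F (Fin 4 → F)) =
          k • suzukiPointInfinity F := by
        have := congrArg Subtype.val (inv_smul_smul g (p 0))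
        rw [hg0] at this
        exact this.symm
      have e1 : ((p 1 : suzukiOvoid F m) : Projectivization F (Fin 4 → F)) =
          k • pt m (0 : F) 0 := by
        have := congrArg Subtype.val (inv_smul_smul g (p 1))
        rw [hg1] at this
        exact this.symm
      have e2 : ((p 2 : suzukiOvoid F m) : Projectivization F (Fin 4 → F)) =
          k • pt m x y := by
        have := congrArg Subtype.val (inv_smul_smul g (p 2))
        rw [h'] at this
        exact this.symm
      fin_cases i
      · exact e0
      · exact e1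
      · exact e2
    rw [hp]
    exact Projectivization.Independent.mk f hf hl

end Cfsg.Agent.Lib.Suzuki.Form
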